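import Mathlib
import Cfsg.Agent.Base
import Cfsg.Agent.Lib.Weyl.Types

/-! Centres of Weyl groups and generation by a Coxeter element and reflections. -/

set_option autoImplicit false

namespace H37.CG

open H39 CoxeterSystem

section
variable {B : Type*} [Fintype B] [DecidableEq B] {M : CoxeterMatrix B} {A : B → B → ℤ}
  {W : Type*} [Group W]

theorem geo_center (h : CartanFor M A) (cs : CoxeterSystem M W) {z : W}
    (hz : z ∈ Subgroup.center W) (i : B) :
    h.geo cs z (sr i) = sr i ∨ h.geo cs z (sr i) = - sr i := by
  have hc : cs.simple i * z = z * cs.simple i := Subgroup.mem_center_iff.mp hz _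
  have e1 : refl A i (h.geo cs z (sr i)) = - h.geo cs z (sr i) := by
    rw [← h.geo_simple cs, ← h.geo_mul_apply, hc, h.geo_mul_simple_sr]
  have hr : h.IsRoot cs (h.geo cs z (sr i)) := (CartanFor.isRoot_sr i).geo z
  rcases hr.nonneg_or_nonpos with hp | hp
  · left
    refine hr.eq_sr_of_refl_nonpos hp ?_
    rw [h.geo_simple, e1]; exact neg_nonpos.mpr hp
  · right
    have := hr.neg.eq_sr_of_refl_nonpos (neg_nonneg.mpr hp) (i := i) (by
      rw [map_neg, h.geo_simple, e1, neg_neg]; exact hp)
    exact neg_eq_iff_eq_neg.mp this

theorem geo_center_adj (h : CartanFor M A) (cs : CoxeterSystem M W) {z : W}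
    (hz : z ∈ Subgroup.center W) {i j : B} (hij : A i j ≠ 0) {c : ℤ}
    (hj : h.geo cs z (sr j) = c • sr j) : h.geo cs z (sr i) = c • sr i := by
  have hc : cs.simple i * z = z * cs.simple i := Subgroup.mem_center_iff.mp hz _
  have e1 : refl A i (h.geo cs z (sr j)) = h.geo cs z (refl A i (sr j)) := by
    rw [← h.geo_simple cs, ← h.geo_mul_apply, hc, h.geo_mul_apply]
  rw [hj, map_smul, refl_apply, cf_sr, map_sub, map_smul, hj, smul_sub, sub_right_inj,
    smul_comm] at e1
  exact (smul_right_injective _ hij e1).symm

theorem center_cases (h : CartanFor M A) (cs : CoxeterSystem M W) (i0 : B)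
    (hconn : ∀ i, Relation.ReflTransGen (fun a b => A b a ≠ 0) i0 i) {z : W}
    (hz : z ∈ Subgroup.center W) : z = 1 ∨ ∀ μ, h.wt cs z μ = - μ := by
  have hz' : z⁻¹ ∈ Subgroup.center W := inv_mem hz
  have key : ∀ c : ℤ, h.geo cs z⁻¹ (sr i0) = c • sr i0 → ∀ i, h.geo cs z⁻¹ (sr i) = c • sr i := by
    intro c hc i
    induction hconn i with
    | refl => exact hc
    | tail _ hab ih => exact geo_center_adj h cs hz' hab ih
  rcases geo_center h cs hz' i0 with e | e
  · left
    have := h.eq_one_of_nonneg cs z⁻¹ fun i => by
      rw [key 1 (by simpa using e) i, one_smul]; exact sr_nonneg i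
    exact inv_eq_one.mp this
  · right
    intro μ
    funext j
    simp only [CartanFor.wt]
    rw [key (-1) (by simpa using e) j]
    simp [dot_sr]
end

variable {n : ℕ} {M : CoxeterMatrix (Fin n)} {W : Type*} [Group W] {AL : List (List ℤ)}

/-- Connectedness certificate: a list of edges `(a, b)` reached in order. -/
def connOK (AL : List (List ℤ)) (S : List (Fin n)) : List (Fin n × Fin n) → Bool
  | [] => (List.finRange n).all fun i => decide (i ∈ S)
  | e :: L => decide (e.1 ∈ S) && decide (matF n AL e.2 e.1 ≠ 0) && connOK AL (e.2 :: S) L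

theorem conn_of_connOK (i0 : Fin n) (L : List (Fin n × Fin n)) (S : List (Fin n))
    (hS : ∀ i ∈ S, Relation.ReflTransGen (fun a b => matF n AL b a ≠ 0) i0 i)
    (hL : connOK AL S L = true) (i : Fin n) :
    Relation.ReflTransGen (fun a b => matF n AL b a ≠ 0) i0 i := by
  induction L generalizing S with
  | nil =>
    simp only [connOK, List.all_eq_true, decide_eq_true_eq] at hL
    exact hS i (hL i (List.mem_finRange i))
  | cons e L ih =>
    simp only [connOK, Bool.and_eq_true, decide_eq_true_eq] at hL
    refine ih (e.2 :: S) ?_ hL.2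
    intro j hj
    rcases List.mem_cons.mp hj with rfl | hj
    · exact (hS _ hL.1.1).tail hL.1.2
    · exact hS j hj

theorem center_eq_or (hA : AL.length = n) (hA' : ∀ r ∈ AL, r.length = n)
    (h : CartanFor M (matF n AL)) (cs : CoxeterSystem M W) (i0 : Fin n)
    (L : List (Fin n × Fin n)) (hL : connOK AL [i0] L = true) (ω : List (Fin n))
    (hω : wordL AL ω (List.replicate n 1) = List.replicate n (-1)) {z : W}
    (hz : z ∈ Subgroup.center W) : z = 1 ∨ z = cs.wordProd ω := by
  rcases center_cases h cs i0 (conn_of_connOK i0 L [i0] (fun i hi => by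
    rw [List.mem_singleton.mp hi]) hL) hz with e | e
  · exact Or.inl e
  · right
    obtain ⟨-, h2⟩ := wt_wordProd hA hA' h cs ω (l := List.replicate n 1) (by simp)
    have hl : ∀ j, 0 < toF n (List.replicate n 1) j := fun j => by
      simp [toF, List.getD_eq_getElem?_getD]
    have e2 : toF n (List.replicate n (-1)) = - toF n (List.replicate n 1) := by
      funext j; simp [toF, List.getD_eq_getElem?_getD]
    have := h.eq_one_of_wt_fix cs hl (w := z⁻¹ * cs.wordProd ω)
      (by rw [h.wt_mul, h2, hω, e2, ← e, h.wt_inv_apply])
    exact inv_mul_eq_one.mp this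

theorem wordProd_mem_center (hA : AL.length = n) (hA' : ∀ r ∈ AL, r.length = n)
    (h : CartanFor M (matF n AL)) (cs : CoxeterSystem M W) (ω : List (Fin n))
    (hc : ∀ i, wordL AL (i :: ω) (List.replicate n 1) = wordL AL (ω ++ [i]) (List.replicate n 1)) :
    cs.wordProd ω ∈ Subgroup.center W := by
  rw [Subgroup.mem_center_iff]
  intro g
  have hg : g ∈ Subgroup.centralizer {cs.wordProd ω} := by
    have : Subgroup.closure (Set.range cs.simple) ≤ Subgroup.centralizer {cs.wordProd ω} := by
      rw [Subgroup.closure_le]
      rintro _ ⟨i, rfl⟩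
      have := (wordProd_eq_iff hA hA' h cs _ _).mpr (hc i)
      rw [wordProd_cons, wordProd_append, wordProd_singleton] at this
      exact Subgroup.mem_centralizer_singleton_iff.mpr this
    rw [cs.subgroup_closure_range_simple] at this
    exact this (Subgroup.mem_top g)
  exact Subgroup.mem_centralizer_singleton_iff.mp hg

theorem cox_eq (M : CoxeterMatrix (Fin n)) :
    ((List.finRange n).map M.simple).prod = M.toCoxeterSystem.wordProd (List.finRange n) := by
  simp [wordProd]

theorem center_two (hA : AL.length = n) (hA' : ∀ r ∈ AL, r.length = n)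
    (h : CartanFor M (matF n AL)) (i0 : Fin n)
    (L : List (Fin n × Fin n)) (hL : connOK AL [i0] L = true) (k : ℕ)
    (hω : wordL AL (List.replicate k (List.finRange n)).flatten (List.replicate n 1) =
      List.replicate n (-1))
    (hc : ∀ i, wordL AL (i :: (List.replicate k (List.finRange n)).flatten) (List.replicate n 1) =
      wordL AL ((List.replicate k (List.finRange n)).flatten ++ [i]) (List.replicate n 1)) :
    Nat.card (Subgroup.center M.Group) = 2 ∧
      Subgroup.center M.Group ≤ Subgroup.zpowers ((List.finRange n).map M.simple).prod := by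
  set cs := M.toCoxeterSystem
  set ω := (List.replicate k (List.finRange n)).flatten with hωd
  have hne : cs.wordProd ω ≠ 1 := by
    intro e
    rw [← cs.wordProd_nil, wordProd_eq_iff hA hA' h cs, hω] at e
    have e2 : List.replicate n (-1 : ℤ) = List.replicate n 1 := e
    have hn : 0 < n := Fin.pos i0
    have := congrArg (fun l => l.getD 0 0) e2
    simp [List.getD_eq_getElem?_getD, hn] at this
  constructor
  · have : (Subgroup.center M.Group : Set M.Group) = {1, cs.wordProd ω} := by
      ext z
      constructor
      · exact fun hz => center_eq_or hA hA' h cs i0 L hL ω hω hz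
      · rintro (rfl | rfl)
        · exact one_mem _
        · exact wordProd_mem_center hA hA' h cs ω hc
    rw [← SetLike.coe_sort_coe, this, Nat.card_coe_set_eq, Set.ncard_pair hne.symm]
  · intro z hz
    rcases center_eq_or hA hA' h cs i0 L hL ω hω hz with rfl | rfl
    · exact one_mem _
    · rw [cox_eq, hωd, ← wordProd_pow]
      exact Subgroup.npow_mem_zpowers _ _

theorem center_one (hA : AL.length = n) (hA' : ∀ r ∈ AL, r.length = n)
    (h : CartanFor M (matF n AL)) (i0 : Fin n)
    (L : List (Fin n × Fin n)) (hL : connOK AL [i0] L = true) (ω : List (Fin n))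
    (hω : wordL AL ω (List.replicate n 1) = List.replicate n (-1)) (i : Fin n)
    (hc : wordL AL (i :: ω) (List.replicate n 1) ≠ wordL AL (ω ++ [i]) (List.replicate n 1)) :
    Nat.card (Subgroup.center M.Group) = 1 ∧
      Subgroup.center M.Group ≤ Subgroup.zpowers ((List.finRange n).map M.simple).prod := by
  set cs := M.toCoxeterSystem
  have : Subgroup.center M.Group = ⊥ := by
    rw [eq_bot_iff]
    intro z hz
    rcases center_eq_or hA hA' h cs i0 L hL ω hω hz with rfl | rfl
    · exact one_mem _
    · exfalso
      apply hc
      rw [← wordProd_eq_iff hA hA' h cs, wordProd_cons, wordProd_append, wordProd_singleton]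
      exact Subgroup.mem_center_iff.mp hz _
  rw [this]
  exact ⟨Subgroup.card_bot, bot_le⟩

/-- Expansion of a word in the letters `c, c⁻¹, t₁, t₂, …`. -/
def expand (T : List (Fin n)) (u : List ℕ) : List (Fin n) :=
  (u.map fun a => (List.finRange n :: (List.finRange n).reverse :: T.map fun t => [t]).getD a []).flatten

theorem gen_cox (hA : AL.length = n) (hA' : ∀ r ∈ AL, r.length = n)
    (h : CartanFor M (matF n AL)) (T : List (Fin n)) (hT : T.Nodup) (U : List (List ℕ))
    (hU : ∀ i : Fin n, wordL AL (expand T (U.getD i [])) (List.replicate n 1) =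
      wordL AL [i] (List.replicate n 1)) :
    ∃ S : Finset M.Group, S.card = T.length ∧
      (∀ t ∈ S, ∃ (g : M.Group) (i : Fin n), t = g * M.simple i * g⁻¹) ∧
      Subgroup.closure (({((List.finRange n).map M.simple).prod} : Set M.Group) ∪ ↑S) = ⊤ := by
  classical
  set cs := M.toCoxeterSystem
  refine ⟨(T.map cs.simple).toFinset, ?_, ?_, ?_⟩
  · rw [List.toFinset_card_of_nodup (hT.map (h.simple_injective cs)), List.length_map]
  · intro t ht
    obtain ⟨i, -, rfl⟩ := List.mem_map.mp (List.mem_toFinset.mp ht)
    exact ⟨1, i, by simp [cs]⟩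
  · rw [cox_eq]
    set K := Subgroup.closure (({cs.wordProd (List.finRange n)} : Set M.Group) ∪
      ↑(T.map cs.simple).toFinset)
    have hc : cs.wordProd (List.finRange n) ∈ K := Subgroup.subset_closure (Or.inl rfl)
    have hl : ∀ a : ℕ, cs.wordProd ((List.finRange n :: (List.finRange n).reverse ::
        T.map fun t => [t]).getD a []) ∈ K := by
      intro a
      rcases a with _ | _ | a
      · exact hc
      · show cs.wordProd (List.finRange n).reverse ∈ K
        rw [wordProd_reverse]; exact inv_mem hc
      · show cs.wordProd ((T.map fun t => [t]).getD a []) ∈ K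
        by_cases ha : a < T.length
        · rw [List.getD_eq_getElem _ _ (by simpa using ha), List.getElem_map, wordProd_singleton]
          exact Subgroup.subset_closure (Or.inr (by
            simp only [List.coe_toFinset, Set.mem_ofPred_eq]
            exact List.mem_map_of_mem (List.getElem_mem ha)))
        · rw [List.getD_eq_default _ _ (by simpa using ha), wordProd_nil]; exact one_mem _
    have hu : ∀ u, cs.wordProd (expand T u) ∈ K := by
      intro u
      induction u with
      | nil => simp [expand, one_mem]
      | cons a u ih =>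
        have : expand T (a :: u) = (List.finRange n :: (List.finRange n).reverse ::
          T.map fun t => [t]).getD a [] ++ expand T u := rfl
        rw [this, wordProd_append]
        exact mul_mem (hl a) ih
    rw [eq_top_iff, ← cs.subgroup_closure_range_simple, Subgroup.closure_le]
    rintro _ ⟨i, rfl⟩
    have := (wordProd_eq_iff hA hA' h cs _ _).mpr (hU i)
    rw [wordProd_singleton] at this
    rw [← this]
    exact hu _

end H37.CG
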