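import Mathlib
import Cfsg.Agent.Base
import Cfsg.Agent.Lib.Lang.Gen2
import Cfsg.Agent.Lib.Twist.D4
import Cfsg.Agent.Lib.Twist.F4

/-! Generation of the twisted groups by two elements. -/

set_option autoImplicit false

namespace H37.Gen

open H38 H39 H6

section Grp

variable {G : Type*} [Group G] {K : Type*} [Field K] {M : Subgroup G} {y : K → G}

lemma line_all2 [Fintype K] (hK : 4 ≤ Fintype.card K) (hy : ∀ a b, y a * y b = y (a + b))
    {h h' : G} (hh : Commute h h') {α β : K}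
    (h1 : ∀ t, h * y t * h⁻¹ = y (α * t)) (h2 : ∀ t, h' * y t * h'⁻¹ = y (β * t))
    (hα : ∀ t, t ≠ 0 → ∃ j : ℕ, t ^ 2 = α ^ j) (hβ : β ≠ 1) (hM : h ∈ M)
    (hb : y 1 * h' * (y 1)⁻¹ ∈ M) (t : K) : y t ∈ M := by
  have hα1 : α ≠ 1 := by
    rintro rfl
    obtain ⟨c, hc⟩ := exists_unit_sq_ne hK
    obtain ⟨j, hj⟩ := hα c c.ne_zero
    exact hc (Units.ext (by simpa using hj))
  have hc : y ((α - 1) * (1 - β)) ∈ M := by
    have e : y ((α - 1) * (1 - β)) =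
        h * (y 1 * h' * (y 1)⁻¹) * h⁻¹ * (y 1 * h' * (y 1)⁻¹)⁻¹ := by
      have e1 : h * (y 1 * h' * (y 1)⁻¹) * h⁻¹ * (y 1 * h' * (y 1)⁻¹)⁻¹ =
          (h * y 1 * h⁻¹) * ((h * h' * h⁻¹) * ((h * y 1 * h⁻¹)⁻¹ * y 1) * h'⁻¹) * (y 1)⁻¹ := by group
      rw [e1, hh.eq, mul_inv_cancel_right, h1, ← line_neg hy, hy, h2, ← line_neg hy, hy, hy]
      congr 1; ring
    rw [e]
    exact mul_mem (mul_mem (mul_mem hM hb) (inv_mem hM)) (inv_mem hb)
  have h0 : (α - 1) * (1 - β) ≠ 0 := mul_ne_zero (sub_ne_zero.mpr hα1) (sub_ne_zero.mpr hβ.symm)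
  have := line_sq (y := fun t => y (t * ((α - 1) * (1 - β)))) (M := M)
    (fun a b => by rw [hy, add_mul]) (fun s hs => by
      obtain ⟨j, hj⟩ := hα s hs
      rw [hj]; exact line_pow hM h1 hc j) (t * ((α - 1) * (1 - β))⁻¹)
  rwa [inv_mul_cancel_right₀ h0] at this

lemma exists_pow_norm [Fintype K] {k : Kˣ} (hk : ∀ t : Kˣ, ∃ j : ℕ, t = k ^ j) {q N : ℕ}
    (hq : 2 ≤ q) (hN : Fintype.card K - 1 = N * (q - 1)) {t : K} (h0 : t ≠ 0) (ht : t ^ q = t) :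
    ∃ j : ℕ, t = ((k ^ (N : ℤ) : Kˣ) : K) ^ j := by
  classical
  obtain ⟨i, hi⟩ := hk (Units.mk0 t h0)
  have h1 : orderOf k = N * (q - 1) := by
    rw [orderOf_eq_card_of_forall_mem_powers fun x => let ⟨j, hj⟩ := hk x; ⟨j, hj.symm⟩,
      Nat.card_eq_fintype_card, Fintype.card_units, hN]
  have h2 : k ^ (i * (q - 1)) = 1 := by
    rw [pow_mul, ← hi]
    refine mul_right_cancel (b := Units.mk0 t h0) (Units.ext ?_)
    rw [← pow_succ, Nat.sub_add_cancel (by omega)]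
    simpa using ht
  obtain ⟨j, hj⟩ := Nat.dvd_of_mul_dvd_mul_right (by omega) (h1 ▸ orderOf_dvd_of_pow_eq_one h2)
  refine ⟨j, ?_⟩
  rw [← Units.val_pow_eq_pow_val, zpow_natCast, ← pow_mul, ← hj, ← hi]; rfl

lemma zpow_card [Fintype K] (t : Kˣ) {a b c : ℤ} (h : a = b + c * (Fintype.card K - 1)) :
    t ^ a = t ^ b := by
  classical
  have : t ^ ((Fintype.card K : ℤ) - 1) = 1 := by
    have h1 := pow_card_eq_one (G := Kˣ) (x := t)
    rw [Fintype.card_units, ← zpow_natCast, Nat.cast_sub Fintype.card_pos] at h1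
    exact h1
  rw [h, zpow_add, mul_comm c, zpow_mul, this, one_zpow, mul_one]

lemma ne_one_of_gen [Fintype K] (hK : 4 ≤ Fintype.card K) {k : Kˣ}
    (hk : ∀ t : Kˣ, ∃ j : ℕ, t = k ^ j) {a b : ℤ} (h : ∀ t : Kˣ, t ^ (a * b) = t ^ (2 : ℤ)) :
    ((k ^ a : Kˣ) : K) ≠ 1 := fun e => by
  obtain ⟨c, hc⟩ := exists_unit_sq_ne hK
  obtain ⟨j, hj⟩ := gen_zpow hk h c c.ne_zero
  rw [e, one_pow, zpow_ofNat] at hj
  exact hc (Units.ext (by simpa using hj))

end Grp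

variable {ι : Type} [Finite ι] {n : ℕ} {R : RS ι (Fin n)} {AL : List (List ℤ)}
  {K : Type*} [Field K] {G : Type*} [Group G] {E : Elts R K G} {M : Subgroup G} {T : Tw E}

omit [Finite ι] in
lemma Tab.is (hT : Tab R AL) (ω : List (Fin n)) (i : Fin n) (v : List ℤ)
    (h : wordL AL ω (AL.getD i []) = v) : Is R (Gen.wp R ω (R.sim i)) v := h ▸ hT.wp (hT.sim i) ω

lemma sc_σ {g : G} (hg : g ∈ T.Γ) {i : Fin n} {β : K} (h : Sc E g (R.sim i) β) :
    Sc E g (R.sim (T.ρ i)) (T.φ i β) := fun t => by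
  obtain ⟨t, rfl⟩ := (T.φ i).surjective t
  have := congrArg T.σ (h t)
  rwa [map_mul, map_mul, map_inv, T.mem_Γ.mp hg, T.σ_pos, T.σ_pos, map_mul] at this

/-- A parametrisation of a fundamental root group of the twisted group. -/
structure Line (T : Tw E) (i a : Fin n) (y : K → G) : Prop where
  add : ∀ s t, y s * y t = y (s + t)
  mem : ∀ g, g ∈ E.XS (T.S.PJ i) ⊓ T.Γ ↔ ∃ t, g = y t
  sc : ∀ g ∈ T.Γ, ∀ β, Sc E g (R.sim a) β → ∀ t, g * y t * g⁻¹ = y (β * t)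

lemma commute_sim {j k : Fin n} (hne : j ≠ k) (h : R.A j k = 0) (s t : K) :
    Commute (E.x (R.sim j) s) (E.x (R.sim k) t) :=
  commute_orth E hne h (E.x_mem_XS (Tw.IsPM.inSub (Or.inl rfl) j) _)
    (E.x_mem_XS (Tw.IsPM.inSub (Or.inl rfl) k) _)

lemma line2 {i a b : Fin n} (h : T.S.Orth i [a, b]) (ha : T.ρ a = b) (hb : T.ρ b = a)
    (hφ : ∀ t, T.φ b (T.φ a t) = t) :
    Line T i a fun t => E.x (R.sim a) t * E.x (R.sim b) (T.φ a t) := by
  have hab : a ≠ b := by simpa using h.nodup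
  have c := commute_sim (E := E) hab (h.orth a (by simp) b (by simp) hab)
  refine ⟨fun s t => ?_, fun g => ?_, fun g hg β h1 t => ?_⟩
  · rw [map_add, ← E.x_add, ← E.x_add, (c _ _).symm.mul_mul_mul_comm]
  · rw [h.PJ_eq]; exact Tw.IsPM.mem2 (Or.inl rfl) h ha hb hφ
  · rw [map_mul, ← h1, ← ha, ← sc_σ hg h1]; group

lemma line3 {i a b c : Fin n} (h : T.S.Orth i [a, b, c]) (ha : T.ρ a = b) (hb : T.ρ b = c)
    (hc : T.ρ c = a) (hφ : ∀ t, T.φ c (T.φ b (T.φ a t)) = t) :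
    Line T i a fun t => E.x (R.sim a) t * (E.x (R.sim b) (T.φ a t) *
      E.x (R.sim c) (T.φ b (T.φ a t))) := by
  have hn := h.nodup
  simp only [List.nodup_cons, List.mem_cons, not_or, List.not_mem_nil, not_false_eq_true,
    List.nodup_nil, and_true] at hn
  obtain ⟨⟨n1, n2⟩, n3⟩ := hn
  have c1 := commute_sim (E := E) n1 (h.orth a (by simp) b (by simp) n1)
  have c2 := commute_sim (E := E) n2 (h.orth a (by simp) c (by simp) n2)
  have c3 := commute_sim (E := E) n3 (h.orth b (by simp) c (by simp) n3)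
  refine ⟨fun s t => ?_, fun g => ?_, fun g hg β h1 t => ?_⟩
  · rw [map_add, map_add, ← E.x_add, ← E.x_add, ← E.x_add,
      ((c1 _ _).mul_right (c2 _ _)).symm.mul_mul_mul_comm, (c3 _ _).symm.mul_mul_mul_comm]
  · rw [h.PJ_eq]; exact Tw.IsPM.mem3 (Or.inl rfl) h ha hb hc hφ
  · have h2 := sc_σ hg h1
    rw [ha] at h2
    have h3 := sc_σ hg h2
    rw [hb] at h3
    rw [map_mul, map_mul, ← h1, ← h2, ← h3]; group

lemma le_of_map (hM : M ≤ T.Γ) {ω : List (Fin n)} (hω : WM E M ω) {A B : Set ι}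
    (h : ∀ r ∈ A, wp R ω r ∈ B) (hB : E.XS B ⊓ T.Γ ≤ M) : E.XS A ⊓ T.Γ ≤ M := fun g hg => by
  obtain ⟨m, hm, h1⟩ := hω
  have := hB ⟨h1.conj_mem_XS h hg.1,
    T.Γ.mul_mem (T.Γ.mul_mem (hM hm) hg.2) (T.Γ.inv_mem (hM hm))⟩
  rwa [M.mul_mem_cancel_right (inv_mem hm), M.mul_mem_cancel_left hm] at this

omit [Finite ι] in
lemma inSub_W' {w : Equiv.Perm ι} (hw : w ∈ R.W) {I J : Set (Fin n)}
    (h : ∀ j ∈ J, R.InSub I (w (R.sim j))) {r : ι} (hr : R.InSub J r) : R.InSub I (w r) := by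
  intro k hk
  rw [R.rt_W hw, R.lin_apply, Finset.sum_apply]
  refine Finset.sum_eq_zero fun j _ => ?_
  by_cases hj : j ∈ J
  · simp [h j hj k hk]
  · simp [hr j hj]

/-- Powers of `ω` move each fundamental class and its negative to one of two classes. -/
def cover (AL : List (List ℤ)) (ω : List (Fin n)) (O : Fin n → List (Fin n)) (i i' : Fin n) : Prop :=
  ∀ j : Fin n, (∃ m < 12, ∃ i0 ∈ [i, i'], ∀ k ∈ O j, ∃ k' ∈ O i0,
      wordL AL (List.replicate m ω).flatten (AL.getD k []) = AL.getD k' []) ∧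
    ∃ m < 12, ∃ i0 ∈ [i, i'], ∀ k ∈ O j, ∃ k' ∈ O i0,
      wordL AL (List.replicate m ω).flatten (AL.getD k []) = (AL.getD k' []).map (-·)

set_option synthInstance.maxSize 2000 in
instance decCover (ω : List (Fin n)) (O : Fin n → List (Fin n)) (i i' : Fin n) :
    Decidable (cover AL ω O i i') := by unfold cover; infer_instance

lemma G1_le (hT : Tab R AL) (hM : M ≤ T.Γ) {ω : List (Fin n)} (hω : WM E M ω)
    {O : Fin n → List (Fin n)} (hO : ∀ i j, j ∈ O i ↔ j ∈ T.S.orb i) {i i' : Fin n}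
    (h1 : E.XS (T.S.PJ i) ⊓ T.Γ ≤ M) (h2 : E.XS (T.S.PJ i') ⊓ T.Γ ≤ M) (h : cover AL ω O i i') :
    T.G1 ≤ M := by
  have h3 : ∀ i0 ∈ [i, i'], E.XS (T.S.PJ i0) ⊓ T.Γ ≤ M := by simpa using ⟨h1, h2⟩
  refine iSup_le fun j => sup_le ?_ ?_
  · obtain ⟨m, -, i0, hi, h4⟩ := (h j).1
    have h5 : ∀ k ∈ T.S.orb j, ∃ k' ∈ T.S.orb i0,
        wp R (List.replicate m ω).flatten (R.sim k) = R.sim k' := fun k hk =>
      let ⟨k', a, b⟩ := h4 k ((hO _ _).mpr hk)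
      ⟨k', (hO _ _).mp a, (hT.is _ _ _ b).unique (hT.sim k')⟩
    refine le_of_map (B := T.S.PJ i0) hM (hω.rep m) (fun r hr => ⟨R.pos_W_of_sim (wp_mem _) hr.1 fun k hk => ?_,
      inSub_W' (wp_mem _) (fun k hk => ?_) hr.2⟩) (h3 i0 hi)
    · obtain ⟨k', -, b⟩ := h5 k (by by_contra hn; exact hk (hr.2 k hn))
      rw [b]; exact R.pos_sim _
    · obtain ⟨k', a, b⟩ := h5 k hk
      rw [b]; exact R.inSub_sim.mpr a
  · obtain ⟨m, -, i0, hi, h4⟩ := (h j).2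
    have h5 : ∀ k ∈ T.S.orb j, ∃ k' ∈ T.S.orb i0,
        wp R (List.replicate m ω).flatten (R.sim k) = R.neg (R.sim k') := fun k hk =>
      let ⟨k', a, b⟩ := h4 k ((hO _ _).mpr hk)
      ⟨k', (hO _ _).mp a, (hT.is _ _ _ b).unique (hT.sim k').neg⟩
    refine le_of_map (B := T.S.PJ i0) hM (hω.rep m) (fun r hr => ⟨?_,
      inSub_W' (wp_mem _) (fun k hk => ?_) hr.2⟩) (h3 i0 hi)
    · rw [← R.not_pos_neg_iff, ← R.W_neg (wp_mem _)]
      refine R.not_pos_W_of_sim (wp_mem _) ((R.pos_neg_iff r).mpr hr.1) fun k hk => ?_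
      obtain ⟨k', -, b⟩ := h5 k (by by_contra hn; exact hk (R.inSub_neg.mpr hr.2 k hn))
      rw [b, R.not_pos_neg_iff]; exact R.pos_sim _
    · obtain ⟨k', a, b⟩ := h5 k hk
      rw [b]; exact R.inSub_neg.mpr (R.inSub_sim.mpr a)

theorem tw_gen [Fintype K] (hK : 4 ≤ Fintype.card K) (hT : Tab R AL) (hg : T.Good) (h3 : E.R3)
    (ω : List (Fin n))
    (hω : ∀ j : Fin n, wordL AL (ω.map T.ρ) (AL.getD j []) = wordL AL ω (AL.getD j []))
    {i a : Fin n} {y : K → G} (hy : Line T i a y) {c : Fin n → Kˣ} (hc : c ∈ T.T1) {z : G}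
    (hz : z ∈ T.Γ) (hcz : Commute (Elts.tor h3 c) z) {j : ℕ} (hj : z ^ Fintype.card K ^ j = 1)
    {α β : K} (s1 : Sc E (Elts.tor h3 c) (R.sim a) α)
    (s2 : Sc E (Elts.tor h3 c) (wp R ω.reverse (R.sim a)) β)
    (hα : ∀ t, t ≠ 0 → ∃ j : ℕ, t ^ 2 = α ^ j) (hβ : β ≠ 1) {i' : Fin n}
    (h2 : ∀ M, Elts.tor h3 c ∈ M → z ∈ M → WM E M ω → E.XS (T.S.PJ i') ⊓ T.Γ ≤ M)
    {O : Fin n → List (Fin n)} (hO : ∀ i j, j ∈ O i ↔ j ∈ T.S.orb i) (h : cover AL ω O i i') :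
    ∃ a ∈ T.Γ, ∃ b ∈ T.Γ, T.G1 ≤ Subgroup.closure {a, b} := by
  obtain ⟨g, hg1, hr⟩ := hg.exists_rep (w := wp R ω) ⟨wp_mem ω, (T.cj_list ω).trans (hT.wp_eq hω)⟩
  have hgΓ := T.G1_le_Γ hg1
  have hh := T.tor_mem_Γ h3 hc
  have hy1 : y 1 ∈ T.Γ := ((hy.mem _).mpr ⟨1, rfl⟩).2
  refine ⟨_, mul_mem hh hz, _, mul_mem hy1 hgΓ, ?_⟩
  have hM : Subgroup.closure {Elts.tor h3 c * z, y 1 * g} ≤ T.Γ :=
    (Subgroup.closure_le _).mpr (Set.pair_subset (mul_mem hh hz) (mul_mem hy1 hgΓ))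
  obtain ⟨a1, a2⟩ := split_mem h3 hcz hj (Subgroup.subset_closure (Set.mem_insert _ {y 1 * g}))
  generalize e : Subgroup.closure (G := G) _ = M at a1 a2 hM ⊢
  have hb : y 1 * g ∈ M := e ▸ Subgroup.subset_closure (Set.mem_insert_of_mem _ rfl)
  have h4 : ∀ t, y t ∈ M := by
    refine line_all2 hK hy.add (Elts.H_comm h3 (tor_mem_H h3 _)
      (E.conj_mem_H hr.mem_N (tor_mem_H h3 _))) (hy.sc _ hh _ s1)
      (hy.sc _ (mul_mem (mul_mem hgΓ hh) (inv_mem hgΓ)) _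
        (sc_conj' hr (wp_reverse (R := R) ω ▸ s2))) hα hβ a1 ?_
    convert mul_mem (mul_mem hb a1) (inv_mem hb) using 1
    group
  have h5 : WM E M ω := ⟨g, (M.mul_mem_cancel_left (h4 1)).mp hb, hr⟩
  refine G1_le hT hM h5 hO (fun x hx => ?_) (h2 M a1 a2 h5) h
  obtain ⟨t, rfl⟩ := (hy.mem x).mp hx
  exact h4 t

lemma second_fixed [Fintype K] {k : Kˣ} (hk : ∀ t : Kˣ, ∃ j : ℕ, t = k ^ j) {q N : ℕ}
    (hq : 2 ≤ q) (hN : Fintype.card K - 1 = N * (q - 1)) {i : Fin n} (h : T.S.Orth i [i])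
    (hφ : ∀ t, T.φ i t = t ^ q) {g : G} {ω : List (Fin n)} (m : ℕ)
    (s : Sc E g (wp R (List.replicate m ω).flatten (R.sim i)) (k ^ (N : ℤ) : Kˣ)) (M : Subgroup G)
    (hg : g ∈ M) (hx : E.x (R.sim i) 1 ∈ M) (hω : WM E M ω) : E.XS (T.S.PJ i) ⊓ T.Γ ≤ M := by
  obtain ⟨w, hw, hr⟩ := hω.rep m
  intro x hx'
  rw [h.PJ_eq] at hx'
  obtain ⟨t, ht, rfl⟩ := (Tw.IsPM.mem1 (Or.inl rfl) h).mp hx'
  by_cases h0 : t = 0
  · rw [h0, E.x_zero]; exact one_mem _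
  obtain ⟨j, hj⟩ := exists_pow_norm hk hq hN h0 (hφ t ▸ ht)
  have := line_pow (mul_mem (mul_mem (inv_mem hw) hg) hw) (sc_inv_conj hr s) hx j
  rwa [mul_one, ← hj] at this

omit [Finite ι] in
lemma sc_zero {g : G} {r : ι} {k : Kˣ} (h : Sc E g r (k ^ (0 : ℤ) : Kˣ)) (t : K) :
    Commute g (E.x r t) := (Sc.commute (by simpa using h) t).symm

lemma x_mem_Γ {i : Fin n} (h : T.ρ i = i) : E.x (R.sim i) 1 ∈ T.Γ := by
  rw [Tw.mem_Γ, T.σ_pos, h, map_one]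

theorem gen_2E6 [Fintype K] {R : RS ι (Fin 6)} {E : Elts R K G} {T : Tw E} {q : ℕ} (h : IsE6 T q) :
    ∃ a ∈ T.Γ, ∃ b ∈ T.Γ, T.Γ ≤ Subgroup.closure {a, b} := by
  have hT : Tab R alE6 := ⟨alE6_len, alE6_rows, h.hA⟩
  have hq := h.two_le
  obtain ⟨k, hk⟩ := exists_gen K
  have hK : 4 ≤ Fintype.card K := by rw [h.hK]; nlinarith
  have key := fun (ω : List (Fin 6)) i v hv e he =>
    sc_tor (e := e) h.h3 k ![0, 0, -1, 0, -q, 0] (hT.is ω i v hv) he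
  conv => enter [1, a, 2, 1, b, 2, 1]; rw [← h.G1_eq]
  exact tw_gen hK hT h.good h.h3 [0, 5, 2, 4, 3, 1] (by rw [h.hρ]; decide +kernel)
    (line2 (h.orth 0) (by rw [h.hρ]; rfl) (by rw [h.hρ]; rfl)
      fun t => by rw [h.hφ, h.hφ, h.pow_pow])
    (h.mem_T1.mpr (by simp)) (x_mem_Γ (i := 1) (by rw [h.hρ]; rfl))
    (sc_zero (key [] 1 _ rfl 0 (by simp [Fin.sum_univ_six, wordL, alE6])) 1)
    (line_card (E.x_add _) 1) (key [] 0 _ rfl 1 (by simp [Fin.sum_univ_six, wordL, alE6]))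
    (key _ 0 [-1, -1, 0, 0, 1, 0] (by decide +kernel) (-q) (by simp [Fin.sum_univ_six]))
    (fun t ht => by simpa using gen_zpow hk (a := 1) (b := 2) (c := 2) (by simp) t ht)
    (ne_one_of_gen hK hk (b := -2 * q) fun t => zpow_card t (c := 2) (by rw [h.hK]; push_cast; ring))
    (second_fixed hk hq (N := q + 1) (by rw [h.hK, ← Nat.sq_sub_sq, one_pow]) (h.orth 1) (h.hφ 1) 2
      (key _ 1 [1, 1, -1, 0, -1, 1] (by decide +kernel) _ (by simp [Fin.sum_univ_six]; ring)))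
    (O := orbE6) (fun i j => (h.orth i).mem j) (by decide +kernel)

theorem gen_3D4 [Fintype K] {R : RS ι (Fin 4)} {E : Elts R K G} {T : Tw E} {q : ℕ} (h : IsD4 T q) :
    ∃ a ∈ T.Γ, ∃ b ∈ T.Γ, T.Γ ≤ Subgroup.closure {a, b} := by
  have hT : Tab R alD4 := ⟨alD4_len, alD4_rows, h.hA⟩
  have hq := h.two_le
  obtain ⟨k, hk⟩ := exists_gen K
  have hK : 4 ≤ Fintype.card K := by
    rw [h.hK]; exact le_trans (by norm_num) (Nat.pow_le_pow_left hq 3)
  have hc : (Fintype.card K : ℤ) = q ^ 3 := by rw [h.hK]; push_cast; ring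
  have key := fun (ω : List (Fin 4)) i v hv e he =>
    sc_tor (e := e) h.h3 k ![1 + q, 1 + q + q ^ 2, (1 + q) * q, (1 + q) * q * q]
      (hT.is ω i v hv) he
  conv => enter [1, a, 2, 1, b, 2, 1]; rw [← h.G1_eq]
  refine tw_gen hK hT h.good h.h3 [0, 2, 3, 1] (by rw [h.hρ]; decide +kernel)
    (line3 (h.orth 0) (by rw [h.hρ]; rfl) (by rw [h.hρ]; rfl) (by rw [h.hρ]; rfl)
      fun t => by rw [h.hφ, h.hφ, h.hφ, h.pow_pow])
    (h.mem_T1.mpr ⟨?_, by simp [zpow_mul], by simp [zpow_mul]⟩)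
    (x_mem_Γ (i := 1) (by rw [h.hρ]; rfl))
    (sc_zero (zpow_card k (c := -1) (b := 0) (a := 1 - q ^ 3) (by rw [hc]; ring) ▸
      key [] 1 _ rfl _ (by simp [Fin.sum_univ_four, wordL, alD4]; ring)) 1)
    (line_card (E.x_add _) 1)
    (key [] 0 _ rfl (1 + q - q ^ 2) (by simp [Fin.sum_univ_four, wordL, alD4]; ring))
    (key _ 0 [-1, -1, 1, 1] (by decide +kernel) (-2 - q + q ^ 2 + q ^ 3)
      (by simp [Fin.sum_univ_four]; ring))
    (fun t ht => by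
      simpa using gen_zpow hk (a := 1 + q - q ^ 2) (b := 1 + q ^ 2) (c := 2)
        (fun t => zpow_card t (c := 1 - q) (by rw [hc]; ring)) t ht)
    (ne_one_of_gen hK hk (b := -1 - q ^ 2) fun t => zpow_card t (c := -q ^ 2 - q)
      (by rw [hc]; ring))
    (second_fixed hk hq (N := q ^ 2 + q + 1) ?_ (h.orth 1) (h.hφ 1) 5
      (key _ 1 [0, 1, 0, 0] (by decide +kernel) _ (by simp [Fin.sum_univ_four]; ring)))
    (O := orbD4) (fun i j => (h.orth i).mem j) (by decide +kernel)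
  · rw [← Units.val_pow_eq_pow_val, ← zpow_natCast, ← zpow_mul]
    exact congrArg _ (zpow_card k (c := 1) (by rw [hc]; simp; ring))
  · obtain ⟨p, rfl⟩ : ∃ p, q = p + 1 := ⟨q - 1, by omega⟩
    rw [h.hK, Nat.add_sub_cancel, Nat.sub_eq_iff_eq_add (Nat.one_le_pow _ _ (by omega))]; ring

/-! ### The large Ree groups -/

section B2

variable {l : Type} [Fintype l] [DecidableEq l] {R : RS ι l} {E : Elts R K G} {T : Tw E}
  {a b c d : ι} {φa φb : K ≃+* K} [CharP K 2] (h : T.B2 a b c d φa φb)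
  (h1 : ∀ s t, Commute (E.x c s) (E.x b t)) (h2 : ∀ s t, Commute (E.x d s) (E.x a t))
  (h3 : ∀ s t, Commute (E.x d s) (E.x b t))

/-- The elements of a root group of Suzuki type. -/
def Y (E : Elts R K G) (a b c d : ι) (φa φb : K ≃+* K) (t u : K) : G :=
  E.x a (φb t) * (E.x b t * (E.x c (φb t * t + u) * E.x d (φa u)))

include h h1 h2 h3

lemma b2_comm (v t : K) : Commute (E.x c v) (E.x a t) := by
  have e1 := h.comm (1 + t) v
  have e2 : ((1 + t) ^ 2 * v) = 1 ^ 2 * v + t ^ 2 * v := by rw [CharTwo.add_sq, add_mul]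
  rw [e2, add_mul, ← E.x_add, ← E.x_add, ← E.x_add, ← mul_assoc, h.comm, one_mul, one_pow, one_mul,
    (show Commute _ _ from (h.comm' _ _).symm).mul_mul_mul_comm] at e1
  have e3 := h.comm t v
  have e4 : Commute (E.x c v * E.x d v) (E.x c (t * v) * E.x d (t ^ 2 * v)) :=
    ((show Commute _ _ from E.x_comm _ _ _).mul_right (h.comm' _ _).symm).mul_left
      ((show Commute _ _ from h.comm' _ _).mul_right (E.x_comm _ _ _))
  rw [e4.eq, mul_assoc (E.x a 1) (E.x a t), mul_assoc (E.x a 1), mul_assoc (E.x a 1),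
    mul_assoc (E.x a 1), mul_right_inj, ← mul_assoc (E.x a t * _), ← e3, mul_assoc, mul_assoc,
    mul_assoc, mul_right_inj, (h2 v t).eq, ← mul_assoc, ← mul_assoc, mul_left_inj] at e1
  exact e1

lemma Y_mul (t u t' u' : K) :
    Y E a b c d φa φb t u * Y E a b c d φa φb t' u' =
      Y E a b c d φa φb (t + t') (u + u' + φb t * t') := by
  have e1 : φb (t + t') * (t + t') + (u + u' + φb t * t') =
      φb t' * t + ((φb t * t + u) + (φb t' * t' + u')) := by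
    rw [map_add]; linear_combination (φb t * t') * (CharTwo.two_eq_zero (R := K))
  have e2 : φa (u + u' + φb t * t') = φb t' ^ 2 * t + (φa u + φa u') := by
    rw [map_add, map_add, map_mul, h.inv, h.sq t']; ring
  have c1 : ∀ p q r s, Commute (E.x c p * E.x d q) (E.x a r * E.x b s) := fun p q r s =>
    ((b2_comm h h1 h2 h3 _ _).mul_right (h1 _ _)).mul_left ((h2 _ _).mul_right (h3 _ _))
  have c2 : ∀ p q s, Commute (E.x c p * E.x d q) (E.x b s) := fun p q s =>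
    (h1 _ _).mul_left (h3 _ _)
  have c3 : ∀ p q r s, E.x c (p + q) * E.x d (r + s) = E.x c p * E.x d r * (E.x c q * E.x d s) :=
    fun p q r s => by
      rw [← E.x_add, ← E.x_add, (show Commute _ _ from (h.comm' _ _).symm).mul_mul_mul_comm]
  rw [Y, Y, Y, e1, e2, c3, c3, map_add, ← E.x_add a, ← E.x_add b]
  have e3 := h.comm (φb t') t
  have e4 := (c1 (φb t * t + u) (φa u) (φb t') t').eq
  have e5 := (c2 (φb t' * t) (φb t' ^ 2 * t) t').eq
  generalize E.x c (φb t * t + u) * E.x d (φa u) = z1 at *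
  generalize E.x c (φb t' * t' + u') * E.x d (φa u') = z2 at *
  generalize E.x c (φb t' * t) * E.x d (φb t' ^ 2 * t) = z3 at *
  calc _ = E.x a (φb t) * E.x b t * (z1 * (E.x a (φb t') * E.x b t')) * z2 := by group
    _ = E.x a (φb t) * (E.x b t * E.x a (φb t')) * E.x b t' * z1 * z2 := by rw [e4]; group
    _ = E.x a (φb t) * (E.x a (φb t') * E.x b t) * (z3 * E.x b t') * z1 * z2 := by rw [e3]; group
    _ = _ := by rw [e5]; group

lemma Y_sq : Y E a b c d φa φb 1 0 * Y E a b c d φa φb 1 0 = Y E a b c d φa φb 0 1 := by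
  rw [Y_mul h h1 h2 h3, CharTwo.add_self_eq_zero]; simp

lemma Y_four : Y E a b c d φa φb 1 0 ^ 4 = 1 := by
  rw [show 4 = 2 * 2 from rfl, pow_mul, sq, sq, Y_sq h h1 h2 h3, Y_mul h h1 h2 h3,
    CharTwo.add_self_eq_zero (1 : K)]
  simp [Y, E.x_zero]

omit h1 h2 h3 in
lemma Y_conj {g : G} {γ : K} (s1 : Sc E g a (φb γ)) (s2 : Sc E g b γ) (s3 : Sc E g c (φb γ * γ))
    (s4 : Sc E g d (φa (φb γ * γ))) (t u : K) : g * Y E a b c d φa φb t u * g⁻¹ =
      Y E a b c d φa φb (γ * t) (φb γ * γ * u) := by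
  rw [Y, Y, map_mul φb, map_mul φa _ u, ← s1, ← s2, ← s4,
    show φb γ * φb t * (γ * t) + φb γ * γ * u = φb γ * γ * (φb t * t + u) by ring, ← s3]
  group

lemma b2_le {g : G} (hg : g ∈ M) {γ : K} (s1 : Sc E g a (φb γ)) (s2 : Sc E g b γ)
    (s3 : Sc E g c (φb γ * γ)) (s4 : Sc E g d (φa (φb γ * γ)))
    (g1 : ∀ t, t ≠ 0 → ∃ j : ℕ, t = γ ^ j) (g2 : ∀ t, t ≠ 0 → ∃ j : ℕ, t = (φb γ * γ) ^ j)
    (hz : Y E a b c d φa φb 1 0 ∈ M) : E.XS {a, b, c, d} ⊓ T.Γ ≤ M := by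
  intro x hx
  obtain ⟨t, u, rfl⟩ := h.mem_iff.mp hx
  have e : Y E a b c d φa φb t 0 * Y E a b c d φa φb 0 u = Y E a b c d φa φb t u := by
    rw [Y_mul h h1 h2 h3]; simp
  have h0 : Y E a b c d φa φb 0 0 ∈ M := by simp [Y, E.x_zero, one_mem]
  refine (e ▸ mul_mem ?_ ?_ : Y E a b c d φa φb t u ∈ M)
  · by_cases ht : t = 0
    · rwa [ht]
    obtain ⟨j, rfl⟩ := g1 t ht
    simpa using line_pow (y := fun t => Y E a b c d φa φb t 0) hg
      (fun t => by rw [Y_conj h s1 s2 s3 s4, mul_zero]) hz j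
  · by_cases ht : u = 0
    · rwa [ht]
    obtain ⟨j, rfl⟩ := g2 u ht
    have := line_pow (y := fun u => Y E a b c d φa φb 0 u) hg
      (fun t => by rw [Y_conj h s1 s2 s3 s4, mul_zero]) (Y_sq h h1 h2 h3 ▸ mul_mem hz hz) j
    rwa [mul_one] at this

end B2

theorem gen_2F4 [Fintype K] {R : RS ι (Fin 4)} {E : Elts R K G} {T : Tw E} {e : ℕ} (h : IsF4 T e)
    (hK : 4 ≤ Fintype.card K) : ∃ a ∈ T.Γ, ∃ b ∈ T.Γ, T.Γ ≤ Subgroup.closure {a, b} := by
  have hT : Tab R alF4 := ⟨alF4_len, alF4_rows, h.hA⟩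
  have := h.char
  obtain ⟨k, hk⟩ := exists_gen K
  have hc : (Fintype.card K : ℤ) = 2 * e ^ 2 := by rw [h.hK]; push_cast; ring
  have hl : ∀ i, R.len (R.sim i) = ![1, 1, 2, 2] i * R.len (R.sim 1) := by
    have a := R.A_symm 0 1
    have b := R.A_symm 2 1
    have c := R.A_symm 3 2
    simp only [hT.hA] at a b c
    simp [matF, alF4] at a b c
    intro i
    fin_cases i <;> simp <;> omega
  have hp := R.len_pos (R.sim 1)
  have hL : L12 R := L12.of_sim fun i j => by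
    rw [hl, hl j]; fin_cases i <;> fin_cases j <;> simp <;> omega
  have c1 := hL.cone1 ((hT.pair' [] [2] 2 1).ge.trans' (by decide))
  have c2 := hL.cone1 ((hT.pair' [] [1] 1 2).ge.trans' (by decide))
  have c3 := cone0 (i := 2) (fun j => by rw [hl, hl 2]; fin_cases j <;> simp <;> omega) rfl
    ((hT.pair' [] [1] 2 2).trans (by decide))
  have hb := h.b2 (p := R.sim) (Or.inl rfl)
  have d1 := fun s t => (commute_of_cone (E := E) c1.1 c1.2 t s).symm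
  have d2 := fun s t => (commute_of_cone (E := E) c2.1 c2.2 t s).symm
  have d3 := fun s t => (commute_of_cone (E := E) c3.1 c3.2 t s).symm
  have key := fun (ω ω' : List (Fin 4)) (i : Fin 4) v
      (hv : wordL alF4 ω (wordL alF4 ω' (alF4.getD i [])) = v) e' he =>
    sc_tor (e := e') h.h3 k ![2 + 2 * e, 3 + 4 * e, 4 + 6 * e, 2 + 4 * e]
      (r := wp R ω (wp R ω' (R.sim i))) (v := v) (hv ▸ hT.wp (hT.wp (hT.sim i) ω') ω) he
  have one : ∀ {g r} {x : K}, x = 1 → Sc E g r (k ^ (0 : ℤ) : Kˣ) → Sc E g r x := fun e1 e2 => by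
    simpa [e1] using e2
  have cv : ∀ {g r} {x : K} {a : ℤ}, Sc E g r (k ^ a : Kˣ) → ((k ^ a : Kˣ) : K) = x → Sc E g r x :=
    fun e1 e2 => e2 ▸ e1
  have pw : ∀ (a : ℤ) (m : ℕ), ((k ^ a : Kˣ) : K) ^ m = (k ^ (a * m) : Kˣ) := fun a m => by
    rw [zpow_mul, zpow_natCast, Units.val_pow_eq_pow_val]
  conv => enter [1, a, 2, 1, b, 2, 1]; rw [← h.G1_eq]
  refine tw_gen hK hT h.good h.h3 [0, 3, 1, 2, 1, 2] (by rw [h.hρ]; decide +kernel)
    (line2 h.orth0 h.ρ0 h.ρ3 fun t => by rw [h.φ0, h.φ3, h.pow_pow'])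
    (h.mem_T1.mpr ⟨?_, ?_⟩) (hb.mem_iff.mpr ⟨1, 0, rfl⟩).2 ?_ (j := 2) ?_
    (key [] [] 0 _ rfl 1 (by simp [Fin.sum_univ_four, wordL, alF4]; ring))
    (key _ [] 0 [0, -1, 0, 1] (by decide +kernel) (-1) (by simp [Fin.sum_univ_four]; ring))
    (fun t ht => by simpa using gen_zpow hk (a := 1) (b := 2) (c := 2) (by simp) t ht)
    (ne_one_of_gen hK hk (b := -2) (by simp)) (i' := 1) (fun M h1 h2 h3 => ?_)
    (O := ![[0, 3], [1, 2], [1, 2], [0, 3]]) (fun i j => ?_) (by decide +kernel)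
  · rw [← zpow_natCast, ← zpow_mul]
    exact zpow_card k (c := -2) (by rw [hc]; simp; ring)
  · rw [← zpow_natCast, ← zpow_mul]
    exact zpow_card k (c := -3) (by rw [hc]; simp; ring)
  · have := Y_conj hb (γ := 1)
      (one (map_one _) (key [] [] 1 _ rfl 0 (by simp [Fin.sum_univ_four, wordL, alF4]; ring)))
      (one rfl (key [] [] 2 _ rfl 0 (by simp [Fin.sum_univ_four, wordL, alF4]; ring)))
      (one (by simp) (key [] [2] 1 [-1, 0, 1, -1] (by decide) 0 (by simp [Fin.sum_univ_four]; ring)))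
      (one (by simp) (key [] [1] 2 [-2, 2, 0, -1] (by decide) 0 (by simp [Fin.sum_univ_four]; ring)))
      1 0
    rw [mul_one, mul_zero, mul_inv_eq_iff_eq_mul] at this
    exact this
  · have := Y_four hb d1 d2 d3
    rw [h.hK, mul_pow, pow_mul]
    exact (congrArg (· ^ _) this).trans (one_pow _)
  · obtain ⟨g, hg, hr⟩ := h3.rep 5
    rw [h.PJ1]
    refine b2_le hb d1 d2 d3 (mul_mem (mul_mem (inv_mem hg) h1) hg) (γ := (k ^ (2 * e : ℤ) : Kˣ))
      (sc_inv_conj hr (cv (key _ [] 1 [1, 1, -1, 0] (by decide +kernel) 1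
        (by simp [Fin.sum_univ_four]; ring)) ?_))
      (sc_inv_conj hr (key _ [] 2 [0, -2, 1, 1] (by decide +kernel) _
        (by simp [Fin.sum_univ_four]; ring)))
      (sc_inv_conj hr (cv (key _ [2] 1 [1, -1, 0, 1] (by decide +kernel) (1 + 2 * e)
        (by simp [Fin.sum_univ_four]; ring)) ?_))
      (sc_inv_conj hr (cv (key _ [1] 2 [2, 0, -1, 1] (by decide +kernel) (2 + 2 * e)
        (by simp [Fin.sum_univ_four]; ring)) ?_)) (fun t ht => ?_) (fun t ht => ?_) h2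
    · rw [h.φ2, pw]
      exact congrArg _ (zpow_card k (c := -1) (by rw [hc]; ring))
    · rw [h.φ2, pw, ← Units.val_mul, ← zpow_add]
      exact congrArg _ (zpow_card k (c := -1) (by rw [hc]; ring))
    · rw [h.φ2, h.φ1, pw, ← Units.val_mul, ← zpow_add, pw]
      exact congrArg _ (zpow_card k (c := -2 - 2 * e) (by rw [hc]; push_cast; ring))
    · simpa using gen_zpow hk (a := 2 * e) (b := e) (c := 1)
        (fun t => zpow_card t (c := 1) (by rw [hc]; ring)) t ht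
    · rw [h.φ2, pw, ← Units.val_mul, ← zpow_add]
      simpa using gen_zpow hk (a := 2 * e * e + 2 * e) (b := 2 * e - 1) (c := 1)
        (fun t => zpow_card t (c := 2 * e + 1) (by rw [hc]; ring)) t ht
  · change _ ↔ T.ρ.SameCycle i j
    rw [h.hρ]; revert i j; decide

end H37.Gen
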