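import Mathlib
import Cfsg.Agent.Base
import Cfsg.Agent.Lib.StChar.DefZero
import Cfsg.Agent.Lib.StChar.Chev
import Cfsg.Agent.Lib.SplitBN.BorelTits
import Cfsg.Agent.Lib.Core.CoprimeBasic

/-!
The values of the Steinberg character at semisimple elements.
-/

set_option autoImplicit false

namespace H37.StV

open Cfsg H13 H13.BN H62.St

section general

variable {G : Type*} [Group G] [Fintype G]

open Classical in
lemma sum_sub_pc (A B L : Subgroup G) [Fintype B] : ∑ k : B, pc A L k =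
    (Nat.card A : ℂ)⁻¹ * ∑ x : G, if x ∈ L then (Nat.card (B ⊓ cj A x : Subgroup G) : ℂ) else 0 := by
  simp only [pc, ← Finset.mul_sum]
  rw [Finset.sum_comm]
  refine congrArg _ (Finset.sum_congr rfl fun x _ => ?_)
  split_ifs with hx
  · simp only [hx, true_and, Finset.sum_boole]
    rw [← card_mackeySub, Nat.card_eq_fintype_card, Fintype.card_subtype]
    rfl
  · simp [hx]

omit [Fintype G] in
lemma sum_subgroupOf {H L : Subgroup G} (h : H ≤ L) [Fintype (H.subgroupOf L)] [Fintype H] (f : G → ℂ) :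
    ∑ k : H.subgroupOf L, f k = ∑ k : H, f k :=
  Fintype.sum_equiv (Subgroup.subgroupOfEquivOfLe h).toEquiv _ _ fun _ => rfl

lemma sum_char_mul {θ : G → ℂ} (hθ : IsCharacter G θ) (V : Subgroup G) [Fintype V] (h : ∑ u : V, θ u = 0) (g : G) :
    ∑ u : V, θ (g * u) = 0 := by
  obtain ⟨n, ρ, rfl⟩ := hθ
  let e : Module.End ℂ (Fin n → ℂ) := (Nat.card V : ℂ)⁻¹ • ∑ u : V, ρ u
  have h0 := H7.card_ne_zero' V
  have h1 : ∀ v : V, ρ v * e = e := fun v => by
    simp only [e, mul_smul_comm, Finset.mul_sum, ← map_mul]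
    exact congrArg _ (Equiv.sum_comp (Equiv.mulLeft v) fun u : V => ρ u)
  have h2 : IsIdempotentElem e := by
    rw [IsIdempotentElem]
    nth_rw 1 [show e = (Nat.card V : ℂ)⁻¹ • ∑ u : V, ρ u from rfl]
    simp [Finset.sum_mul, h1, ← Nat.cast_smul_eq_nsmul ℂ, smul_smul, ← Nat.card_eq_fintype_card, h0]
  have h3 : e = 0 := by
    rw [← LinearMap.IsIdempotentElem.trace_eq_zero_iff h2]
    simp only [e, map_smul, map_sum]
    rw [show ∑ u : V, LinearMap.trace ℂ _ (ρ u) = 0 from h, smul_zero]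
  have h4 := congrArg (fun f => LinearMap.trace ℂ _ (ρ g * f)) h3
  simpa only [e, mul_smul_comm, Finset.mul_sum, ← map_mul, map_smul, map_sum, mul_zero, map_zero, smul_eq_zero,
    inv_eq_zero, h0, false_or, Representation.character] using h4

lemma exists_conj_eq {p : ℕ} [Fact p.Prime] {V : Subgroup G} (hV : IsPGroup p V) {s u : G}
    (hs : s ∈ Subgroup.normalizer (V : Set G)) (hu : u ∈ V) (h1 : ¬ p ∣ orderOf s) (h2 : ¬ p ∣ orderOf (s * u)) :
    ∃ v ∈ V, v * (s * u) * v⁻¹ = s := by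
  obtain ⟨k, hk⟩ := IsPGroup.iff_card.mp hV
  have := hV.isNilpotent
  obtain ⟨v, hv, h⟩ := H2.exists_conj_le_of_coprime (A := Subgroup.zpowers s) (Subgroup.zpowers_le_of_mem hs)
    (B := Subgroup.zpowers (s * u)) (Subgroup.zpowers_le_of_mem (mul_mem (Subgroup.mem_sup_right
      (Subgroup.mem_zpowers _)) (Subgroup.mem_sup_left hu)))
    (by rw [Nat.card_zpowers, hk]; exact (((Fact.out : p.Prime).coprime_iff_not_dvd.mpr h2).symm).pow_right _)
    (Or.inr inferInstance)
  refine ⟨v, hv, (inv_mul_eq_one.mp ((pElt_of_mem hV ?_).eq_one (mul_mem (inv_mem (Subgroup.mem_zpowers _))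
    (h _ (Subgroup.mem_zpowers _))) (by rwa [Nat.card_zpowers]))).symm⟩
  have := mul_mem (mul_mem ((Subgroup.mem_normalizer_iff''.mp hs v).mp hv) hu) (inv_mem hv)
  simpa only [mul_assoc] using this

lemma mul_sum_coset {p : ℕ} [Fact p.Prime] {V : Subgroup G} [Fintype V] (hV : IsPGroup p V) {s : G}
    (hs : s ∈ Subgroup.normalizer (V : Set G)) (h1 : ¬ p ∣ orderOf s) {χ : G → ℂ} (hχ : IsClassFunction G χ)
    (h0 : ∀ g, p ∣ orderOf g → χ g = 0) :
    Nat.card (V ⊓ Subgroup.centralizer {s} : Subgroup G) * ∑ u : V, χ (s * u) = Nat.card V * χ s := by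
  classical
  let f : V → V := fun v => ⟨s⁻¹ * v⁻¹ * s * v, mul_mem ((Subgroup.mem_normalizer_iff''.mp hs _).mp (inv_mem v.2)) v.2⟩
  have h2 : ∀ v, χ (s * f v) = χ s := fun v => by
    rw [← hχ s (v : G)⁻¹]; simp [f, mul_assoc]
  rw [show Nat.card V * χ s = ∑ v, χ (s * f v) by simp [h2], ← nsmul_eq_mul,
    ← Finset.sum_fiberwise (s := Finset.univ) (g := f) fun v => χ (s * f v), Finset.smul_sum]
  refine Finset.sum_congr rfl fun u _ => ?_
  rw [Finset.sum_congr rfl (g := fun _ => χ (s * u)) fun v hv => by rw [(Finset.mem_filter.mp hv).2],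
    Finset.sum_const]
  by_cases h3 : p ∣ orderOf (s * u)
  · simp [h0 _ h3]
  obtain ⟨v, hv, e⟩ := exists_conj_eq hV hs u.2 h1 h3
  congr 1
  rw [← Fintype.card_subtype, ← Nat.card_eq_fintype_card]
  have e' : (u : G) = s⁻¹ * v⁻¹ * s * v := by
    calc (u : G) = s⁻¹ * v⁻¹ * (v * (s * u) * v⁻¹) * v := by group
      _ = _ := by rw [e]
  refine Nat.card_congr ⟨fun c => ⟨⟨c * v, mul_mem c.2.1 hv⟩, Subtype.ext ?_⟩, fun w => ⟨w.1 * v⁻¹,
    V.mul_mem w.1.2 (V.inv_mem hv), Subgroup.mem_centralizer_singleton_iff.mpr ?_⟩, fun c => by simp, fun w => by simp⟩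
  · have := Subgroup.mem_centralizer_singleton_iff.mp c.2.2
    simp only [f, e', mul_inv_rev, mul_assoc, ← mul_assoc s, ← this]
    simp [mul_assoc]
  · have := (congrArg Subtype.val w.2).trans e'
    simp only [f, mul_assoc, mul_right_inj] at this
    rw [mul_assoc, ← mul_inv_cancel_right (v⁻¹ * s) v, mul_assoc v⁻¹ s, ← this, InvMemClass.coe_inv]; group

end general

variable {G : Type*} [Group G] [Fintype G] {P : BNPair G}

open Classical in
lemma sum_par_pc {I J K : Set P.S} (hI : I ⊆ K) (hJ : J ⊆ K) [Fintype (par P J)] :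
    ∑ k : par P J, pc (par P I) (par P K) k =
      Nat.card (par P J) * ∑ w : Weyl P, if Red (gen P) J I w ∧ w ∈ WJ (gen P) K then 1 else 0 := by
  rw [sum_sub_pc, sum_partition _ _ (existsUnique_red (P := P) J I), Finset.mul_sum, Finset.mul_sum]
  refine Finset.sum_congr rfl fun w _ => ?_
  by_cases hr : Red (gen P) J I w
  swap
  · simp [hr]
  have h1 : ∀ x ∈ DoubleCoset.doubleCoset (rep w : G) (par P J : Set G) (par P I), x ∈ par P K ↔ w ∈ WJ (gen P) K := by
    intro x hx
    obtain ⟨a, ha, c, hc, rfl⟩ := DoubleCoset.mem_doubleCoset.1 hx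
    rw [Subgroup.mul_mem_cancel_right _ (par_mono hI hc), Subgroup.mul_mem_cancel_left _ (par_mono hJ ha)]
    exact ⟨mem_WJ_of_mem_par (rep_mem_cell w), fun hw => mem_par.2 ⟨w, hw, rep_mem_cell w⟩⟩
  have h0 := H7.card_doubleCoset (par P I) (par P J) (rep w)
  have hI0 := H7.card_ne_zero' (par P I)
  rw [if_pos hr, Finset.sum_congr rfl (g := fun _ => if w ∈ WJ (gen P) K then
    (Nat.card (H7.mackeySub (par P I) (par P J) (rep w)) : ℂ) else 0) fun x hx => ?_, Finset.sum_const]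
  · simp only [hr, true_and]
    split_ifs
    · rw [nsmul_eq_mul, ← Fintype.card_subtype, ← Nat.card_eq_fintype_card, ← Nat.cast_mul]
      erw [h0]
      push_cast; field_simp
    · simp
  · have hx' := (Finset.mem_filter.1 hx).2
    have h2 := H7.card_doubleCoset (par P I) (par P J) x
    rw [DoubleCoset.doubleCoset_eq_of_mem hx', ← h0] at h2
    refine if_congr (h1 x hx') ?_ rfl
    have : Nonempty (DoubleCoset.doubleCoset (rep w : G) (par P J : Set G) (par P I)) := ⟨x, hx'⟩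
    rw [← card_mackeySub, Nat.eq_of_mul_eq_mul_left Nat.card_pos h2]

lemma sum_par_st {J K : Finset P.S} (hJ : J ⊆ K) [Fintype (par P J)] [Decidable (J = ∅)] :
    ∑ k : par P J, st P K k = Nat.card (par P J) * if J = ∅ then 1 else 0 := by
  classical
  simp only [st]
  rw [Finset.sum_comm, Finset.sum_congr rfl (g := fun I => Nat.card (par P J) * ∑ w : Weyl P,
    (if ∀ j ∈ I, len (gen P) w < len (gen P) (w * gen P j) then (-1 : ℂ) ^ I.card else 0) *
      if (∀ j ∈ J, len (gen P) w < len (gen P) (gen P j * w)) ∧ w ∈ WJ (gen P) K then 1 else 0) fun I hI => ?_]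
  swap
  · rw [← Finset.mul_sum, sum_par_pc (Finset.coe_subset.mpr (Finset.mem_powerset.mp hI)) (Finset.coe_subset.mpr hJ),
      mul_left_comm, Finset.mul_sum]
    refine congrArg _ (Finset.sum_congr rfl fun w _ => ?_)
    by_cases h1 : ∀ j ∈ I, len (gen P) w < len (gen P) (w * gen P j)
    · rw [if_pos h1]; exact congrArg _ (if_congr (and_congr_left' (and_iff_left h1)) rfl rfl)
    · rw [if_neg h1, if_neg fun h => h1 h.1.2, mul_zero, zero_mul]
  rw [← Finset.mul_sum, Finset.sum_comm]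
  simp only [← Finset.sum_mul, sum_powerset_ite]
  obtain ⟨w, hw, h2, h3⟩ := exists_longest (invGen P) (exchange P) (K : Set P.S)
  rw [Finset.sum_eq_single w ?_ (by simp), if_pos fun j (hj : j ∈ K) => not_lt.2 (h3 j hj).le, one_mul]
  · refine congrArg _ (if_congr ⟨fun h => Finset.eq_empty_of_forall_notMem fun j hj => ?_, ?_⟩ rfl rfl)
    · exact (h.1 j hj).not_gt (h2 j (hJ hj))
    · rintro rfl; exact ⟨by simp, hw⟩
  · intro w' _ hne
    split_ifs with h4 h5
    · exact absurd (longest_unique' (invGen P) (exchange P) h5.2 hw (fun j hj => lt_of_le_of_ne (not_lt.1 (h4 j hj))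
        ((invGen P).len_mul_simple_ne (exchange P) j w')) h3) hne
    all_goals simp

lemma st_res (K : Finset P.S) [Fintype (par P K)] : (fun g : par P K => st P K g) =
    ∑ J ∈ K.powerset, ((-1 : ℂ) ^ J.card) • indFun ((par P J).subgroupOf (par P K)) fun _ => 1 := by
  ext g
  rw [st, Finset.sum_apply]
  exact Finset.sum_congr rfl fun J hJ => by
    rw [pc_eq_indFun (par_mono (Finset.coe_subset.mpr (Finset.mem_powerset.mp hJ)))]; rfl

lemma inner_st {K M : Finset P.S} (h : K ⊆ M) [Fintype (par P K)] :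
    classInner (fun g : par P K => st P M g) (fun g => st P K g) = 1 := by
  classical
  rw [st_res, H7.classInner_sum_right, Finset.sum_congr rfl (g := fun J => if J = ∅ then 1 else 0) fun J hJ => ?_]
  · simp
  have hJ' := Finset.mem_powerset.mp hJ
  have h1 : par P J ≤ par P K := par_mono (Finset.coe_subset.mpr hJ')
  rw [H7.classInner_smul_right, H7.classInner_indFun_right _ _ fun g x : par P K =>
    st_conj M (par_mono (Finset.coe_subset.mpr h) x.2) g, H7.classInner_def,
    Nat.card_congr (Subgroup.subgroupOfEquivOfLe h1).toEquiv]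
  simp only [map_one, mul_one]
  rw [sum_subgroupOf h1 (st P M), sum_par_st (hJ'.trans h),
    inv_mul_cancel_left₀ (H7.card_ne_zero' _)]
  split_ifs with e <;> simp [e]

lemma isIrr_st (K : Finset P.S) : IsIrrCharacter (par P K) fun g => st P K g := by
  have := Fintype.ofFinite (par P K)
  refine H6.isIrr_of_gen_of_inner_self ?_ (inner_st subset_rfl) ?_
  · rw [st_res]
    refine H6.mem_genCharSubring.1 (Subring.sum_mem _ fun J _ => H6.mem_genCharSubring.2 ?_)
    simpa using H6.isGen_intCast_smul ((-1) ^ J.card)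
      (H6.char_isGen (H7.isCharacter_indFun_one ((par P J).subgroupOf (par P K))))
  · obtain ⟨n, -, -, h⟩ := exists_st_eq (P := P) K
    rw [OneMemClass.coe_one, h 1 P.B.one_mem, pc_one, ← Complex.ofReal_natCast, ← Complex.ofReal_natCast,
      ← Complex.ofReal_inv, ← Complex.ofReal_mul, Complex.ofReal_re]
    positivity

variable {p : ℕ} [Fact p.Prime] {U : Subgroup G} (hS : Split P p U) {n₀ : G} (hn : n₀ ∈ P.N)
  (h₀ : ∀ u ∈ U, n₀⁻¹ * u * n₀ ∈ P.B → u = 1)
include hS hn h₀

/-- Harish-Chandra restriction of the Steinberg character -/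
theorem sum_stein {K : Finset P.S} {n : G} (hR : Rad P U K n) {g : G} (hg : g ∈ par P K)
    [Fintype (U ⊓ cj P.B n : Subgroup G)] :
    ∑ u : (U ⊓ cj P.B n : Subgroup G), stein P (g * u) = Nat.card (U ⊓ cj P.B n : Subgroup G) * st P K g := by
  classical
  have h1 : U ⊓ cj P.B n ≤ par P K := inf_le_left.trans (hS.le.trans (B_le_par _))
  have h2 : ∀ g : G, ∀ u : (U ⊓ cj P.B n : Subgroup G), st P K (g * u) = st P K g := fun g u => by
    refine Finset.sum_congr rfl fun J _ => congrArg (_ * ·) (congrArg (_ * ·) (Finset.sum_congr rfl fun x _ =>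
      if_congr (and_congr_right fun hx => ?_) rfl rfl))
    have := hR.conj _ (inv_mem hx) _ u.2
    rw [show x⁻¹ * (g * u) * x = x⁻¹ * g * x * (x⁻¹ * u * x⁻¹⁻¹) by group,
      Subgroup.mul_mem_cancel_right _ (B_le_par _ (hS.le this.1))]
  have h3 := sum_subgroupOf h1
  have h4 := sum_char_mul (H6.isCharacter_sub_of_inner_ne_zero (H7.isCharacter_res (H6.irr_isCharacter
    (isIrr_stein (P := P))) _) (isIrr_st K) ((inner_st (Finset.subset_univ K)).trans_ne one_ne_zero))
    ((U ⊓ cj P.B n).subgroupOf (par P K)) (by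
      simp only [Pi.sub_apply, Finset.sum_sub_distrib]
      rw [h3 (stein P), h3 (st P K), Finset.sum_eq_single 1 (fun u _ hu => hS.stein_eq_zero hn h₀
        (pElt_of_mem hS.pgp u.2.1) fun e => hu (Subtype.ext e)) (by simp), OneMemClass.coe_one, hS.stein_one hn h₀,
        Finset.sum_congr rfl fun u _ => hS.st_of_mem hR u.2, Finset.sum_const, Finset.card_univ, nsmul_eq_mul,
        ← Nat.card_eq_fintype_card, mul_inv_cancel_left₀ (H7.card_ne_zero' _), sub_self]) ⟨g, hg⟩
  simp only [Pi.sub_apply, Finset.sum_sub_distrib, Subgroup.coe_mul] at h4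
  rw [h3 fun u => stein P (g * u), h3 fun u => st P K (g * u), sub_eq_zero] at h4
  simp [h4, h2]

theorem stein_eq_mul {K : Finset P.S} {n : G} (hR : Rad P U K n) {s : G} (hs : s ∈ par P K) (h1 : ¬ p ∣ orderOf s) :
    stein P s = Nat.card (U ⊓ cj P.B n ⊓ Subgroup.centralizer {s} : Subgroup G) * st P K s := by
  have := Fintype.ofFinite (U ⊓ cj P.B n : Subgroup G)
  have h2 := mul_sum_coset (V := U ⊓ cj P.B n) (hS.pgp.to_le inf_le_left)
    (Subgroup.mem_normalizer_fintype (hR.conj s hs)) h1 (H6.irr_isClassFunction isIrr_stein)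
    fun g => hS.stein_eq_zero_of_dvd hn h₀
  rw [sum_stein hS hn h₀ hR hs, mul_left_comm] at h2
  exact (mul_left_cancel₀ (H7.card_ne_zero' _) h2).symm

/-- the Steinberg character at semisimple elements -/
theorem stein_ss (hR : ∀ K : Set P.S, ∃ n, Rad P U K n) (hBT : ∀ Q : Subgroup G, IsPGroup p Q →
    ∃ (g : G) (K : Set P.S) (n : G), Rad P U K n ∧ (∀ m ∈ Subgroup.normalizer (Q : Set G), g * m * g⁻¹ ∈ par P K) ∧
      ∀ x ∈ Q, g * x * g⁻¹ ∈ U ⊓ cj P.B n) {s : G} (h1 : ¬ p ∣ orderOf s) : ∃ k : ℕ,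
    stein P s = (-1) ^ k * (p ^ (Nat.card (Subgroup.centralizer {s})).factorization p : ℕ) := by
  classical
  obtain ⟨S⟩ : Nonempty (Sylow p (Subgroup.centralizer {s})) := inferInstance
  let Q := (S : Subgroup _).map (Subgroup.centralizer {s}).subtype
  have hQ : ∀ x ∈ Q, x * s = s * x := by
    rintro _ ⟨x, -, rfl⟩; exact Subgroup.mem_centralizer_singleton_iff.mp x.2
  have hex : ∃ m, ∃ (g : G) (K : Finset P.S) (n : G), K.card = m ∧ Rad P U K n ∧ g * s * g⁻¹ ∈ par P K ∧
      ∀ x ∈ Q, g * x * g⁻¹ ∈ U ⊓ cj P.B n := by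
    obtain ⟨g, K, n, a1, a2, a3⟩ := hBT Q (S.isPGroup'.map _)
    exact ⟨_, g, K.toFinset, n, rfl, by simpa, by simpa using a2 s (Subgroup.mem_normalizer_fintype fun x hx => by
      rwa [← hQ x hx, mul_inv_cancel_right]), a3⟩
  obtain ⟨g, K, n, a0, a1, a2, a3⟩ := Nat.find_spec hex
  have h2 : orderOf (g * s * g⁻¹) = orderOf s := (MulAut.conj g).orderOf_eq s
  refine ⟨K.card, ?_⟩
  rw [← H6.irr_isClassFunction isIrr_stein s g, stein_eq_mul hS hn h₀ a1 a2 (h2 ▸ h1), mul_comm, st,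
    Finset.sum_eq_single K (fun J hJ hne => ?_) (by simp), pc_eq_of_forall fun x hx =>
      mul_mem (mul_mem (inv_mem hx) a2) hx, inv_mul_cancel₀ (H7.card_ne_zero' _), mul_one]
  · congr 2
    obtain ⟨k, hk⟩ := IsPGroup.iff_card.mp (hS.pgp.to_le (inf_le_left.trans inf_le_left :
      U ⊓ cj P.B n ⊓ Subgroup.centralizer {g * s * g⁻¹} ≤ U))
    refine le_antisymm ?_ ?_
    · have h3 := Subgroup.card_dvd_of_le (inf_le_right : U ⊓ cj P.B n ⊓ Subgroup.centralizer {g * s * g⁻¹} ≤ _)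
      rw [hk, Nat.card_congr ((MulAut.conj g⁻¹).toEquiv.subtypeEquiv (q := (· ∈ Subgroup.centralizer {s})) fun z => by
        rw [Subgroup.mem_centralizer_singleton_iff, Subgroup.mem_centralizer_singleton_iff]
        exact ((MulAut.conj g⁻¹).injective.eq_iff.symm.trans (by rw [map_mul, map_mul]; simp [mul_assoc])))] at h3
      rw [hk]
      exact Nat.pow_le_pow_right (Fact.out : p.Prime).pos
        (((Fact.out : p.Prime).pow_dvd_iff_le_factorization Nat.card_pos.ne').mp h3)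
    · rw [← S.card_eq_multiplicity]
      refine Nat.card_le_card_of_injective (fun x => ⟨g * x.1 * g⁻¹, a3 _ ⟨x.1, x.2, rfl⟩,
        Subgroup.mem_centralizer_singleton_iff.mpr ?_⟩) fun x y e => ?_
      · exact ((show Commute (x.1 : G) s from hQ _ ⟨x.1, x.2, rfl⟩).map (MulAut.conj g)).eq
      · exact Subtype.ext (Subtype.ext ((MulAut.conj g).injective (congrArg Subtype.val e)))
  · rw [pc_eq_zero fun x hx hx' => ?_, mul_zero]
    have hJ' := Finset.mem_powerset.mp hJ
    obtain ⟨n', hn'⟩ := hR J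
    refine Nat.find_min hex (a0 ▸ Finset.card_lt_card (lt_of_le_of_ne hJ' hne)) ⟨x⁻¹ * g, J, n', rfl, hn',
      by simpa [mul_assoc] using hx', fun y hy => ?_⟩
    have h3 := a1.conj _ (inv_mem hx) _ (a3 y hy)
    have h4 := a1.conj _ (inv_mem (par_mono (Finset.coe_subset.mpr hJ') hn'.mem_par)) _ h3
    exact ⟨by simpa [mul_assoc] using h3.1, mem_cj.mpr (by simpa [mul_assoc] using hS.le h4.1)⟩

omit hS hn h₀ in
theorem stein_elts {ι l : Type} [Fintype l] [DecidableEq l] [Finite ι] {R : H38.RS ι l} {K : Type*} [Field K]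
    [Finite K] [CharP K p] {E : H38.Elts R K G} (hF : E.Faith) (htop : E.Gp = ⊤) (h3 : E.R3) {s : G}
    (h1 : ¬ p ∣ orderOf s) : ∃ k : ℕ, stein (hF.bnPair htop) s =
      (-1) ^ k * (p ^ (Nat.card (Subgroup.centralizer {s})).factorization p : ℕ) := by
  obtain ⟨n, hn, h⟩ := exists_opp hF
  refine stein_ss (split_elts hF htop h3 p) hn h (exists_rad hF htop) (fun Q hQ => ?_) h1
  obtain ⟨g, J, a1, a2⟩ := H64.SBN.borel_tits' p hF htop h3 hQ
  obtain ⟨n, -, hn⟩ := E.exists_rep_NJ (R.wJ_mem J)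
  refine ⟨g, node hF htop '' J, n, ⟨hn.mem_N, ?_, fun g hg u hu => ?_⟩, by rwa [par_image], fun x hx => ?_⟩
  · rw [par_image]; exact hn.mem_PS _ (R.wJ_mem J)
  · rw [par_image] at hg
    exact (inf_cj_eq_UJ hF hn).ge (E.P_conj_mem_UJ hg ((inf_cj_eq_UJ hF hn).le hu))
  · exact (inf_cj_eq_UJ hF hn).ge (a2 x hx)

end H37.StV
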